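import Cfsg.Agent.Ree.Coord
import Cfsg.Agent.Ree.Tori
/-!
Automorphisms of the small Ree groups: `R.fa : (K ≃+* K) →* MulAut G`, every automorphism is inner times field
(`exists_eq_conj_mul_fa`), no non-trivial field automorphism is inner (`eq_one_of_fa_eq_conj`).
-/

set_option autoImplicit false

namespace Cfsg.Agent.Ree.RC

open Subgroup _root_.Cfsg.Agent.Classical RD
open scoped MatrixGroups

variable {K G : Type*} [Field K] [Finite K] [Group G] (R : RC K G)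

theorem hom_ext {H : Type*} [Group H] {f g : G →* H} (h1 : ∀ t u v, f (R.w t u v) = g (R.w t u v))
    (h2 : f R.n = g R.n) : f = g := by
  have := R.eq_top_of (M := f.eqLocus g) (fun x hx => by obtain ⟨t, u, v, rfl⟩ := R.mem_U.1 hx; exact h1 t u v) h2
  ext x
  exact (this.ge (mem_top x) :)

/-- Field endomorphisms. -/
noncomputable def fe (f : K →+* K) : G →* G := (R.fld f).choose

omit [Finite K] in
theorem fe_w (f : K →+* K) (t u v : K) : R.fe f (R.w t u v) = R.w (f t) (f u) (f v) := (R.fld f).choose_spec.1 t u v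

omit [Finite K] in
theorem fe_h (f : K →+* K) (y : Kˣ) : R.fe f (R.h y) = R.h (Units.map (f : K →* K) y) := (R.fld f).choose_spec.2.1 y

omit [Finite K] in
theorem fe_n (f : K →+* K) : R.fe f R.n = R.n := (R.fld f).choose_spec.2.2

/-- Field automorphisms. -/
noncomputable def fa : (K ≃+* K) →* MulAut G :=
  MonoidHom.mk' (fun σ => MonoidHom.toMulEquiv (R.fe σ) (R.fe σ.symm)
    (R.hom_ext (by simp [fe_w]) (by simp [fe_n])) (R.hom_ext (by simp [fe_w]) (by simp [fe_n]))) fun σ τ => by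
    apply MulEquiv.toMonoidHom_injective
    exact R.hom_ext (fun t u v => by simp [fe_w]) (by simp [fe_n])

theorem fa_w (σ : K ≃+* K) (t u v : K) : R.fa σ (R.w t u v) = R.w (σ t) (σ u) (σ v) := R.fe_w σ t u v

theorem fa_h (σ : K ≃+* K) (y : Kˣ) : R.fa σ (R.h y) = R.h (Units.map ((σ : K →+* K) : K →* K) y) := R.fe_h σ y

theorem fa_n (σ : K ≃+* K) : R.fa σ R.n = R.n := R.fe_n σ

theorem eq_one_of_fa_eq_conj {σ : K ≃+* K} {x : G} (h : R.fa σ = MulAut.conj x) : σ = 1 := by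
  have h1 := R.fa_w σ 0 0 1
  have h2 := R.fa_n σ
  rw [h, MulAut.conj_apply, mul_inv_eq_iff_eq_mul] at h1 h2
  rw [map_zero, map_one] at h1
  have h3 : x ∈ R.B := mem_B_of_comm (R.w_mem 0 0 1) (by simp [w_eq_one]) h1
  obtain ⟨y, rfl⟩ := mem_H.1 (mem_H_of_fix h3 (by
    rw [← n_smul_inf, ← mul_smul, h2, mul_smul, smul_inf_iff.2 h3]))
  rw [← mul_inv_eq_iff_eq_mul, R.h_w, w_eq_iff, mul_one] at h1
  ext v
  have := R.fa_w σ 0 0 v
  rw [h, MulAut.conj_apply, R.h_w, w_eq_iff, h1.2.2, one_mul] at this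
  exact this.2.2.symm

theorem n_u_n (c : Kˣ) : R.n * R.w 0 c 0 * R.n = R.w 0 (-(c : K)⁻¹) 0 * R.n * (R.L (dSL c) * R.w 0 (-(c : K)⁻¹) 0) := by
  simp only [← R.L_w, RD.n, ← map_mul]
  congr 1
  ext i j
  fin_cases i <;> fin_cases j <;> simp [Matrix.mul_apply, Fin.sum_univ_two]

/-- Automorphisms preserving `U` and `H`. -/
def Std (γ : MulAut G) : Prop := (∀ u ∈ R.U, γ u ∈ R.U) ∧ ∀ a, γ (R.h a) ∈ R.H

variable {R}

theorem exists_sq_ne (hm : 1 ≤ R.m) : ∃ a : Kˣ, a ^ 2 ≠ 1 := by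
  obtain ⟨t, ht⟩ := R.exists_ψ_ne hm
  refine ⟨Units.mk0 t (by rintro rfl; simp at ht), fun h => ?_⟩
  rcases unit_sq_eq_one.1 h with h | h <;> have := congrArg Units.val h <;> simp at this <;> simp [this] at ht

theorem exists_std (hm : 1 ≤ R.m) (α : MulAut G) : ∃ x, R.Std (MulAut.conj x * α) := by
  obtain ⟨x, hx⟩ := R.exists_conj_U (P := R.U.map α.toMonoidHom)
    (IsPGroup.map (fun g => ⟨2, Subtype.ext (R.pow9 g g.2)⟩) _)
  have h1 : ∀ u ∈ R.U, (MulAut.conj x⁻¹ * α) u ∈ R.U := fun u hu => by simpa using hx _ ⟨u, hu, rfl⟩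
  generalize hβ : MulAut.conj x⁻¹ * α = β at h1
  obtain ⟨a, ha⟩ := exists_sq_ne hm
  have h2 : β (R.h a) ∈ R.B := mem_B_of_conj (h1 _ (R.w_mem 0 0 1)) (by simp [w_eq_one]) (by
    rw [← map_inv, ← map_mul, ← map_mul]; exact U_le_B (h1 _ (conj_mem_U' (h_mem_B a) (R.w_mem 0 0 1))))
  obtain ⟨u, hu, b, e⟩ := mem_B.1 h2
  have hb : b ^ 2 ≠ 1 := fun hb => ha (h_mem_U (R := R.toRD) (mem_U_of_pow (h_mem_B _) (k := 2) (by
    have : β (R.h (a ^ 2)) = u * (R.h b * u * (R.h b)⁻¹) * R.h (b ^ 2) := by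
      rw [map_pow, map_pow, map_pow, e, sq, sq]; group
    rw [hb, map_one, mul_one] at this
    rw [← β.map_eq_one_iff, map_pow, this]
    exact R.pow9 _ (mul_mem hu (R.h_norm b u hu)))))
  obtain ⟨v, hv, e'⟩ := exists_conj_h hb hu
  refine ⟨v⁻¹ * x⁻¹, ?_⟩
  rw [map_mul, mul_assoc, hβ]
  refine ⟨fun u hu => by simpa using conj_mem_U' (U_le_B hv) (h1 u hu), fun c => ?_⟩
  rw [← centralizer_h hb, mem_centralizer_singleton_iff, ← e', ← e]
  have := congrArg (MulAut.conj v⁻¹ * β) (R.h_comm c a)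
  simpa [mul_assoc] using this

theorem Std.mul {γ δ : MulAut G} (h : R.Std γ) (h' : R.Std δ) : R.Std (γ * δ) :=
  ⟨fun u hu => h.1 _ (h'.1 u hu), fun a => by
    obtain ⟨b, e⟩ := mem_H.1 (h'.2 a); rw [MulAut.mul_apply, ← e]; exact h.2 b⟩

theorem std_fa (σ : K ≃+* K) : R.Std (R.fa σ) :=
  ⟨fun u hu => by obtain ⟨t, u, v, rfl⟩ := R.mem_U.1 hu; rw [fa_w]; exact R.w_mem _ _ _,
    fun a => by rw [fa_h]; exact h_mem_H _⟩

theorem std_h (y : Kˣ) : R.Std (MulAut.conj (R.h y)) :=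
  ⟨R.h_norm y, fun a => mul_mem (mul_mem (h_mem_H _) (h_mem_H _)) (inv_mem (h_mem_H _))⟩

theorem Std.z {γ : MulAut G} (h : R.Std γ) : γ R.z = R.z := by
  obtain ⟨b, e⟩ := mem_H.1 (h.2 (-1))
  change R.h b = γ R.z at e
  have : b ^ 2 = 1 := R.h_inj (by rw [map_pow, e, sq, ← map_mul, z_mul_z, map_one, map_one])
  rcases unit_sq_eq_one.1 this with rfl | rfl
  · rw [map_one, eq_comm, γ.map_eq_one_iff] at e; exact absurd e R.z_ne_one
  · exact e.symm

theorem Std.coord {γ : MulAut G} (h : R.Std γ) : ∃ e r s f : K → K, (∀ t, γ (R.w t 0 0) = R.w (e t) (r t) (s t)) ∧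
    (∀ u, γ (R.w 0 u 0) = R.w 0 (f u) 0) ∧ ∀ t u, γ (R.w 0 0 (t * u)) = R.w 0 0 (e t * f u) := by
  choose e r s h1 using fun t => R.mem_U.1 (h.1 _ (R.w_mem t 0 0))
  choose f h2 using fun u => R.cent _ (h.1 _ (R.w_mem 0 u 0)) (by
    change R.z * _ = _ * R.z
    rw [← h.z, ← map_mul, ← map_mul, ← mul_inv_eq_iff_eq_mul.1 ((R.z_w 0 u 0).trans (by simp))])
  simp only [R.L_w] at h2
  refine ⟨e, r, s, f, h1, h2, fun t u => ?_⟩
  have := congrArg γ ((R.conj_W t 0 0 u 0).trans (c := R.w 0 u 0 * R.w 0 0 (t * u)) (by simp [w_mul_W]))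
  rw [map_mul, map_mul, map_mul, map_inv, h1, h2, conj_W, eq_comm, ← eq_inv_mul_iff_mul_eq, W_inv, w_mul_W] at this
  simpa using this

theorem Std.eq_one (hm : 1 ≤ R.m) {γ : MulAut G} (h : R.Std γ) (hZ : ∀ v, γ (R.w 0 0 v) = R.w 0 0 v) : γ = 1 := by
  have h3 := R.three_eq
  have hH : ∀ y, γ (R.h y) = R.h y := fun y => by
    obtain ⟨k, e⟩ := mem_H.1 (h.2 y)
    have := congrArg γ (R.h_w y 0 0 1)
    rw [map_mul, map_mul, map_inv, ← e, mul_zero, mul_zero, hZ, hZ, R.h_w, w_eq_iff] at this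
    rw [← e, Units.ext (mul_right_cancel₀ one_ne_zero this.2.2)]
  obtain ⟨e, r, s, f, h1, h2, h4⟩ := h.coord
  simp only [hZ, w_eq_iff, true_and] at h4
  have key : ∀ t t', r t + r t' - R.ψ (e t') * e t = r (t + t') + f (-R.ψ t' * t) ∧
      s t + s t' - R.ψ (e t') * e t ^ 2 - e t' * r t + R.ψ (e t') * e t * e t' =
        s (t + t') + (-R.ψ t' * t ^ 2 + R.ψ t' * t * t') := fun t t' => by
    have : R.w t 0 0 * R.w t' 0 0 = R.w (t + t') 0 0 * R.w 0 (-R.ψ t' * t) 0 *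
        R.w 0 0 (-R.ψ t' * t ^ 2 + R.ψ t' * t * t') := by simp [R.w_mul]
    have := congrArg γ this
    rw [map_mul, map_mul, map_mul, h1, h1, h1, h2, hZ, R.w_mul, w_mul_W, w_mul_W, w_eq_iff] at this
    simpa using this.2
  obtain ⟨x, hx⟩ := R.exists_ψ_ne hm
  have he : ∀ t, e t = e 1 * t := fun t => by linear_combination e t * h4 1 1 - e 1 * h4 t 1
  have hf : ∀ t, f t = f 1 * t := fun t => by linear_combination f t * h4 1 1 - f 1 * h4 1 t
  have ha : e 1 = 1 := by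
    have a1 := (key x 1).1
    have a2 := (key 1 x).1
    rw [he x, hf (_ * _), add_comm 1 x] at *
    rw [map_mul] at a2
    rw [map_one] at a1
    have a3 : R.ψ (e 1) * e 1 = f 1 := mul_left_cancel₀ (sub_ne_zero.2 hx) (by linear_combination a1 - a2)
    have a4 : R.ψ (e 1) * e 1 ^ 2 = 1 := by linear_combination e 1 * a3 - h4 1 1
    have a5 := congrArg R.ψ a4
    rw [map_mul, map_pow, R.ψ_ψ, map_one] at a5
    linear_combination (-e 1) * a5 + (R.ψ (e 1) * e 1 ^ 2 + 1) * a4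
  have hc : f 1 = 1 := by linear_combination -h4 1 1 - f 1 * ha
  simp only [ha, hc, one_mul] at he hf
  simp only [he, hf] at h1 h2 key
  have hr : ∀ t, r t = 0 := fun t => by
    have a1 := congrArg γ (R.z_w t 0 0)
    rw [map_mul, map_mul, map_inv, h.z, neg_zero, h1, h1, z_w, w_eq_iff] at a1
    have a2 := h1 0
    rw [w_zero, map_one, eq_comm, w_eq_one] at a2
    have a3 := (key t (-t)).1
    rw [add_neg_cancel, a2.2.1] at a3
    linear_combination -a3 - a1.2.1 + r t * h3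
  simp only [hr] at h1 key
  have hs : ∀ t, t ≠ 0 → s t = t ^ 2 * R.ψ t * s 1 := fun t ht => by
    have h0 : R.ψ t ≠ 0 := (map_ne_zero _).2 ht
    have := congrArg γ (R.h_w (Units.mk0 (t ^ 2 * R.ψ t) (mul_ne_zero (pow_ne_zero 2 ht) h0)) 1 0 0)
    rw [map_mul, map_mul, map_inv, hH, h1, mul_zero, mul_zero, h1, R.h_w, w_eq_iff] at this
    have a := this.2.2
    simp only [Units.val_mk0, map_mul, map_pow, R.ψ_ψ] at a
    rw [a]
    congr 1
    field_simp
  have hs1 : s 1 = 0 := by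
    have a := (key x 1).2
    rw [hs x (by rintro rfl; simp at hx), hs (x + 1) (fun h => hx (by rw [eq_neg_of_add_eq_zero_left h]; simp)),
      map_add, map_one] at a
    have a1 : x - 1 ≠ 0 := fun h => hx (by rw [sub_eq_zero.1 h, map_one])
    exact mul_left_cancel₀ (mul_ne_zero a1 (sub_ne_zero.2 hx)) (by
      linear_combination a + (x * R.ψ x * s 1 + x * s 1) * h3)
  have hw : ∀ t u v, γ (R.w t u v) = R.w t u v := fun t u v => by
    have a : s t = 0 := by
      by_cases ht : t = 0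
      · have a2 := h1 0
        rw [w_zero, map_one, eq_comm, w_eq_one] at a2
        rw [ht, a2.2.2]
      · rw [hs t ht, hs1, mul_zero]
    have : R.w t u v = R.w t 0 0 * R.w 0 u 0 * R.w 0 0 v := by simp [w_mul_W]
    rw [this, map_mul, map_mul, h1, h2, hZ, a]
  have hn : γ R.n = R.n := by
    obtain ⟨a, ha⟩ := exists_sq_ne hm
    have a1 := congrArg γ (R.n_h a)
    rw [map_mul, map_mul, map_inv γ (R.h a), hH, R.n_inv] at a1
    rcases H_or_of_conj (R := R.toRD) ha (g := γ R.n) (by rw [← map_inv, R.n_inv, a1]; exact inv_mem (h_mem_H a)) with h' | h'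
    · obtain ⟨k, e⟩ := mem_H.1 h'
      rw [← hH, γ.injective.eq_iff] at e
      exact absurd (e ▸ h_mem_B k) R.n_notMem
    obtain ⟨k, e⟩ := mem_H.1 h'
    rw [eq_comm, ← eq_inv_mul_iff_mul_eq, R.n_inv] at e
    have b1 := congrArg γ (R.n_u_n 1)
    have b2 := R.n_u_n (Units.mk0 (R.ψ k / k) (div_ne_zero (R.ψ_ne_zero k) k.ne_zero))
    have b3 : R.n * R.h k * R.w 0 1 0 * (R.n * R.h k) = R.n * R.w 0 (R.ψ k / k) 0 * R.n := by
      have c1 := R.h_w k 0 1 0
      have c2 := R.n_h k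
      rw [mul_zero, mul_zero, mul_one] at c1
      rw [← c1, ← c2]
      simp [R.n_inv, mul_assoc, R.n_mul_n]
    have b4 : (dSL 1 : SL(2, K)) = 1 := map_one (dSLHom K)
    simp only [map_mul, hw, e, b4, map_one, one_mul, Units.val_one, b3, inv_one] at b1
    rw [Units.val_mk0] at b2
    rw [b2] at b1
    obtain ⟨b, hb⟩ := R.L_d (Units.mk0 (R.ψ k / k) (div_ne_zero (R.ψ_ne_zero k) k.ne_zero))
    have b5 := congrArg (· • R.inf) b1
    simp only [mul_smul, hb, smul_inf_iff.2 (U_le_B (R.w_mem _ _ _)), smul_inf_iff.2 (h_mem_B _), n_smul_inf, smul_pt,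
      mul_one] at b5
    have b6 := (R.w_inj (pt_inj (R.w_mem _ _ _) (R.w_mem _ _ _) b5)).2.1
    rw [neg_inj, inv_eq_one] at b6
    simp only [b6, Units.mk0_one, b4, map_one, inv_one, one_mul, mul_assoc, mul_right_inj] at b1
    rw [e, ← mul_left_inj (R.w 0 (-1) 0), mul_assoc, ← b1]
  ext g
  exact DFunLike.congr_fun (R.hom_ext (f := γ.toMonoidHom) (g := MonoidHom.id G) hw hn) g

theorem Std.exists_eq (hm : 1 ≤ R.m) {γ : MulAut G} (h : R.Std γ) :
    ∃ y σ, γ = MulAut.conj (R.h y) * R.fa σ := by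
  obtain ⟨e, r, s, f, -, -, h4⟩ := h.coord
  have h0 : e 1 * f 1 ≠ 0 := fun h0 => by
    have := h4 1 1
    rw [h0, w_zero, γ.map_eq_one_iff, w_eq_one] at this
    simp at this
  have h1 : ∀ v, γ (R.w 0 0 v) = R.w 0 0 (e 1 * f v) := fun v => by rw [← h4, one_mul]
  have h2 : ∀ t u, e 1 * f (t * u) = e t * f u := fun t u => (R.w_inj ((h1 _).symm.trans (h4 t u))).2.2
  let φ : K →+* K :=
    { toFun := fun v => e 1 * f v / (e 1 * f 1)
      map_one' := div_self h0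
      map_mul' := fun a b => by
        rw [div_mul_div_comm, div_eq_div_iff h0 (mul_ne_zero h0 h0), h2, ← mul_one a, h2, mul_one]; ring
      map_zero' := by
        have := h1 0
        rw [w_zero, map_one, eq_comm, w_eq_one] at this
        rw [this.2.2, zero_div]
      map_add' := fun a b => by
        have := congrArg γ (R.w_mul_W 0 0 a 0 b)
        rw [map_mul, add_zero, h1, h1, h1, w_mul_W, w_eq_iff] at this
        rw [← this.2.2, add_div] }
  let σ : K ≃+* K := RingEquiv.ofBijective φ (Finite.injective_iff_bijective.1 φ.injective)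
  refine ⟨Units.mk0 _ h0, σ, ?_⟩
  rw [eq_comm, ← inv_mul_eq_one, mul_inv_rev, ← map_inv, ← map_inv, ← map_inv]
  refine (((std_fa _).mul (std_h _)).mul h).eq_one hm fun v => ?_
  rw [MulAut.mul_apply, MulAut.mul_apply, h1, MulAut.conj_apply, R.h_w, fa_w, mul_zero, mul_zero, map_zero]
  congr 1
  refine σ.symm_apply_eq.2 ?_
  simp [σ, φ, div_eq_inv_mul]

variable (R) in
/-- Every automorphism is a product of an inner and a field automorphism. -/
theorem exists_eq_conj_mul_fa (hm : 1 ≤ R.m) (α : MulAut G) : ∃ x σ, α = MulAut.conj x * R.fa σ := by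
  obtain ⟨x, hx⟩ := exists_std hm α
  obtain ⟨y, σ, e⟩ := hx.exists_eq hm
  exact ⟨x⁻¹ * R.h y, σ, by rw [map_mul, mul_assoc, ← e, map_inv, inv_mul_cancel_left]⟩

end Cfsg.Agent.Ree.RC
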